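/-
Project U4: generator level data for the Sylow subgroup inside the Conway group.
-/
import Cfsg.Agent.U4.Defs2

set_option autoImplicit false

namespace CL.U4.CO1g

open Cfsg CL.Fus CL.U5

/-- the word of the element of `Q2` with `pW = v` and last coordinate `c` -/
def Wd {G : Type} [Group G] (Y Y' Zc A A' : G) (v : V2 F9) (c : ZMod 3) : G :=
  Y ^ v.2.re.val * Y' ^ v.2.im.val * Zc ^ c.val * A ^ v.1.re.val * A' ^ v.1.im.val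

structure Dat (X Y Y' Zc A A' : Co0) (e : F9 → leechLattice) : Prop where
  cube : ∀ g ∈ [X, Y, Y', Zc, A, A'], g ^ 3 = 1
  com : ∀ g ∈ [X, Y, Y', Zc], ∀ h ∈ [X, Y, Y', Zc], g * h = h * g
  aa : A * A' = A' * A
  ax : A * X = X * Y * Zc * A
  ay : A * Y = Y * Zc * Zc * A
  ay' : A * Y' = Y' * A
  az : A * Zc = Zc * A
  bx : A' * X = X * Y' * Zc * A'
  by1 : A' * Y = Y * A'
  by' : A' * Y' = Y' * Zc * Zc * A'
  bz : A' * Zc = Zc * A'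
  ne : Zc ≠ 1
  ip : ∀ w w', dotInt (e w : GolayPt → ℤ) (e w') = ip w w'
  fix : ∀ g ∈ [X, Y, Y', Zc, A, A'], ∀ w, g • e w = e w
  all : ∀ y : leechLattice, sqNorm (y : GolayPt → ℤ) = 32 → (∀ g ∈ [X, Y, Y', Zc, A, A'], g • y = y) →
    ∃ w, y = e w ∨ y = -e w
  /-- `l = 1 + i`, `m = 1`, `γ = 1` -/
  pl : ∃ g : Co0, g * X = X * g ∧ g * Y = Y * Y' * g ∧ g * Y' = Y * Y * Y' * g ∧ g * Zc = Zc * Zc * g ∧
    g * A = A * A' * g ∧ g * A' = A * A * A' * g ∧ ∀ w, g • e w = e (i9 * w)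
  /-- `l = 1`, `m = -1`, `γ = 1` -/
  pm : ∃ g : Co0, g * X = X * X * g ∧ g * Y = Y * Y * g ∧ g * Y' = Y' * Y' * g ∧ g * Zc = Zc * Zc * g ∧
    g * A = A * g ∧ g * A' = A' * g ∧ ∀ w, g • e w = e (-w)
  /-- `l = 1`, `m = 1`, `γ = star` -/
  pg : ∃ g : Co0, g * X = X * g ∧ g * Y = Y * g ∧ g * Y' = Y' * Y' * g ∧ g * Zc = Zc * g ∧
    g * A = A * g ∧ g * A' = A' * A' * g ∧ ∀ w, g • e w = e (-star w)
  r1 : ∃ g : Co0, g * X = Zc * g ∧ g * Y = Y * Y * g ∧ g * Y' = Y' * g ∧ g * Zc = X * g ∧ ∀ w, g • e w = e w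
  cell : ∀ w, ∃ (g : Co0) (c1 c2 c3 c4 c5 : ZMod 3), g * A = Wd Y Y' Zc A A' (Jc w (1, 0)) c1 * g ∧
    g * A' = Wd Y Y' Zc A A' (Jc w (i9, 0)) c2 * g ∧ g * Y = Wd Y Y' Zc A A' (Jc w (0, 1)) c3 * g ∧
    g * Y' = Wd Y Y' Zc A A' (Jc w (0, i9)) c4 * g ∧ g * Zc = Zc ^ c5.val * g ∧
    ∀ w', nm (w' - w) ≠ -1 → g • e w' = e w'

end CL.U4.CO1g
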