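/-
Project U4: from generator level data to the Sylow subgroup inside the Conway group.
-/
import Cfsg.Agent.U4.CO1d
import Cfsg.Agent.U4.CA3

set_option autoImplicit false
set_option synthInstance.maxSize 4000

namespace CL.U4.CO1g

open Cfsg CL.Fus CL.U5
open scoped commutatorElement

theorem fix0 : ∀ t : F9, star t = t → t = ⟨t.re, 0⟩ := by decide +kernel
theorem fix1 : ∀ t : ZMod 3, star (⟨t, 0⟩ : F9) = ⟨t, 0⟩ := by decide +kernel

def el (a b : F9) (d c : ZMod 3) : U F9 := ⟨a, ⟨d, 0⟩, b, ⟨c, 0⟩, fix1 _, fix1 _⟩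
theorem el_eq (x : U F9) : x = el x.a x.b x.d.re x.c.re := U.ext rfl (fix0 _ x.hd) rfl (fix0 _ x.hc)

scoped instance decU : DecidableEq (U F9) := fun x y =>
  decidable_of_iff (x.a = y.a ∧ x.d = y.d ∧ x.b = y.b ∧ x.c = y.c) U.ext_iff.symm

def gX : U F9 := el 0 0 1 0
def gY : U F9 := el 0 1 0 0
def gY' : U F9 := el 0 i9 0 0
def gZ : U F9 := el 0 0 0 1
def gA : U F9 := el 1 0 0 0
def gA' : U F9 := el i9 0 0 0

theorem dec0 : ∀ (a b : F9) (d c : ZMod 3), el a b d c =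
    gX ^ d.val * gY ^ b.re.val * gY' ^ b.im.val * gZ ^ c.val * gA ^ a.re.val * gA' ^ a.im.val := by decide +kernel

theorem dec (x : U F9) : x = gX ^ x.d.re.val * gY ^ x.b.re.val * gY' ^ x.b.im.val * gZ ^ x.c.re.val *
    gA ^ x.a.re.val * gA' ^ x.a.im.val := (el_eq x).trans (dec0 _ _ _ _)

theorem ind (P : Subgroup (U F9)) (x : U F9) (h1 : x.d = 0 ∨ gX ∈ P) (h2 : gY ∈ P) (h3 : gY' ∈ P) (h4 : gZ ∈ P)
    (h5 : x.a = 0 ∨ (gA ∈ P ∧ gA' ∈ P)) : x ∈ P := by
  rw [dec x]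
  refine mul_mem (mul_mem (mul_mem (mul_mem (mul_mem ?_ (pow_mem h2 _)) (pow_mem h3 _)) (pow_mem h4 _)) ?_) ?_
  · exact h1.elim (fun e => by rw [e]; exact one_mem _) fun e => pow_mem e _
  · exact h5.elim (fun e => by rw [e]; exact one_mem _) fun e => pow_mem e.1 _
  · exact h5.elim (fun e => by rw [e]; exact one_mem _) fun e => pow_mem e.2 _

def u0 : F9ˣ := Units.mk0 (1 + i9) (by decide +kernel)
def pl (u : F9ˣ) : P4 F9 := ⟨⟨u, 1, 1⟩, star_one F9⟩
def pm : P4 F9 := ⟨⟨1, -1, 1⟩, show star ((-1 : F9ˣ) : F9) = (-1 : F9ˣ) by simp⟩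
def pg : P4 F9 := ⟨⟨1, 1, starRingAut⟩, star_one F9⟩

theorem indP (S : Submonoid (P4 F9)) (h1 : pl u0 ∈ S) (h2 : pm ∈ S) (h3 : pg ∈ S) (h : P4 F9) : h ∈ S := by
  have a : ∀ k : ℕ, pl (u0 ^ k) ∈ S := fun k => by
    induction k with
    | zero => exact one_mem S
    | succ k ih =>
      rw [show pl (u0 ^ (k + 1)) = pl (u0 ^ k) * pl u0 from p4_ext (by simp [pl, pow_succ]) (by simp [pl]) fun _ => rfl]
      exact mul_mem ih h1
  obtain ⟨k, hk⟩ := (by decide +kernel : ∀ l : F9, l ≠ 0 → ∃ k : Fin 8, l = (1 + i9) ^ k.1) _ h.1.l.ne_zero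
  have hk' : ((pl (u0 ^ k.1)).1.l : F9) = h.1.l := by rw [hk]; simp [pl, u0]
  obtain ⟨b, hb⟩ := CA3x.gam h.1.γ
  rcases (by decide +kernel : ∀ m : F9, m ≠ 0 → star m = m → m = 1 ∨ m = -1) _ h.1.m.ne_zero h.2 with e | e <;> cases b
  · rw [show h = pl (u0 ^ k.1) from p4_ext hk'.symm e hb]; exact a k
  · rw [show h = pl (u0 ^ k.1) * pg from p4_ext (hk'.symm.trans (by simp [pl, pg])) (e.trans (by simp [pl, pg])) hb]
    exact mul_mem (a k) h3
  · rw [show h = pl (u0 ^ k.1) * pm from p4_ext (hk'.symm.trans (by simp [pl, pm])) (e.trans (by simp [pl, pm])) hb]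
    exact mul_mem (a k) h2
  · rw [show h = pl (u0 ^ k.1) * pm * pg from p4_ext (hk'.symm.trans (by simp [pl, pm, pg]))
      (e.trans (by simp [pl, pm, pg])) hb]
    exact mul_mem (mul_mem (a k) h2) h3

section
variable {G : Type} [Group G] (ι : U F9 →* G)

theorem inj (hne : ι gZ ≠ 1) : Function.Injective ι := by
  have kZ : ∀ x ∈ Z F9, ι x = 1 → x = 1 := fun x hx e => by
    have h := el_eq x
    rw [hx.1, hx.2.1, hx.2.2] at h
    rcases (by decide +kernel : ∀ c : ZMod 3, el 0 0 (0 : F9).re c = 1 ∨ el 0 0 (0 : F9).re c = gZ ∨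
      el 0 0 (0 : F9).re c * el 0 0 (0 : F9).re c = gZ) x.c.re with k | k | k <;> rw [← h] at k
    · exact k
    · exact (hne (k ▸ e)).elim
    · exact (hne (by rw [← k, map_mul, e, mul_one])).elim
  have cm : ∀ x y, ι x = 1 → ι ⁅y, x⁆ = 1 := fun x y e => by rw [map_commutatorElement, e]; simp
  have kW : ∀ x ∈ W F9, ι x = 1 → x = 1 := fun x hx e => by
    have a := fun s => congrArg U.c (kZ _ (comm_mem_Z (xa s) hx) (cm x _ e))
    simp only [comm_c, xa, (mem_W.1 hx).1, (mem_W.1 hx).2, one_c, mul_zero, add_zero, star_zero, sub_zero] at a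
    exact kZ x ⟨hx.1, hx.2, (by decide +kernel : ∀ b : F9, (∀ s, s * star b + star s * b = 0) → b = 0) _ a⟩ e
  refine (injective_iff_map_eq_one ι).2 fun x e => kW x ⟨?_, ?_⟩ e
  · have a := fun s => congrArg U.c (kW _ (comm_mem_W (xb s) x) (cm x _ e))
    simp only [comm_c, xb, one_c, mul_zero, add_zero, star_zero, zero_mul, zero_sub, neg_eq_zero] at a
    exact (by decide +kernel : ∀ b : F9, (∀ s, b * star s + star b * s = 0) → b = 0) _ a
  · have a := congrArg U.b (kW _ (comm_mem_W (xa 1) x) (cm x _ e))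
    exact mem_Q2.2 (by simpa [xa] using a)

/-- the elements on which `g` induces `α` -/
def Ind (g : G) (α : U F9 →* U F9) : Subgroup (U F9) := (ι.comp α).eqLocus ((MulAut.conj g).toMonoidHom.comp ι)

theorem mem_Ind {g : G} {α : U F9 →* U F9} {x y : U F9} (e : α x = y) (h : g * ι x = ι y * g) : x ∈ Ind ι g α := by
  change ι (α x) = g * ι x * g⁻¹
  rw [e, h, mul_inv_cancel_right]

theorem Jc_add (w : F9) (u v : V2 F9) : Jc w (u + v) = Jc w u + Jc w v := by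
  refine Prod.ext ?_ ?_ <;> simp only [Jc, Jf, Prod.fst_add, Prod.snd_add, star_add] <;> ring

def Cel (g : G) (w : F9) : Submonoid (U F9) where
  carrier := {x | x ∈ Q2 F9 ∧ ∃ x' ∈ Q2 F9, ι x' = g * ι x * g⁻¹ ∧ pW x' = Jc w (pW x)}
  one_mem' := ⟨one_mem _, 1, one_mem _, by simp, by simp [pW, Jc, Jf]⟩
  mul_mem' := by
    rintro x y ⟨hx, x', hx', e1, e2⟩ ⟨hy, y', hy', f1, f2⟩
    exact ⟨mul_mem hx hy, x' * y', mul_mem hx' hy', by rw [map_mul, map_mul, e1, f1]; group,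
      by rw [pW_mul _ hy', pW_mul _ hy, Jc_add, e2, f2]⟩

end

theorem mk (hom : HOM3) {X Y Y' Zc A A' : Co0} {e : F9 → leechLattice} (D : Dat X Y Y' Zc A A' e) : CO1 := by
  have z3 : Zc * Zc = Zc⁻¹ := eq_inv_of_mul_eq_one_left (by rw [← pow_three', D.cube Zc (by simp)])
  have cv : ∀ {g x y : Co0}, g * x = y * g → g * x * g⁻¹ = y := fun h => by rw [h, mul_inv_cancel_right]
  obtain ⟨ι, hι⟩ := hom Co0 X Y Y' Zc A A' D.cube D.com D.aa (cv D.ax) (cv (by rw [D.ay, mul_assoc Y, z3])) (cv D.ay')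
    (cv D.az) (cv D.bx) (cv D.by1) (cv (by rw [D.by', mul_assoc Y', z3])) (cv D.bz)
  have v1 : (1 : ZMod 3).val = 1 := rfl
  have iX : ι gX = X := by rw [hι]; simp [gX, el, v1]
  have v2 : (1 : F9).re.val = 1 := rfl
  have v3 : (1 : F9).im.val = 0 := rfl
  have iY : ι gY = Y := by rw [hι]; simp [gY, el, v2, v3]
  have iY' : ι gY' = Y' := by rw [hι]; simp [gY', el, i9, v1]
  have iZ : ι gZ = Zc := by rw [hι]; simp [gZ, el, v1]
  have iA : ι gA = A := by rw [hι]; simp [gA, el, v2, v3]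
  have iA' : ι gA' = A' := by rw [hι]; simp [gA', el, i9, v1]
  have iW : ∀ v c, ι (el v.1 v.2 0 c) = Wd Y Y' Zc A A' v c := fun v c => by rw [hι]; simp [el, Wd]
  have fx : ∀ (y : leechLattice), (∀ g ∈ [X, Y, Y', Zc, A, A'], g • y = y) → ∀ x, ι x • y = y := fun y hy x =>
    ind ((MulAction.stabilizer Co0 y).comap ι) x (.inr (hy (ι gX) (by simp [iX]))) (hy (ι gY) (by simp [iY]))
      (hy (ι gY') (by simp [iY'])) (hy (ι gZ) (by simp [iZ])) (.inr ⟨hy (ι gA) (by simp [iA]), hy (ι gA') (by simp [iA'])⟩)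
  refine ⟨ι, e, inj ι (iZ ▸ D.ne), D.ip, fun x w => fx _ (fun g hg => D.fix g hg w) x, fun y h1 h2 => D.all y h1 ?_,
    fun h => ?_, ?_, fun w => ?_⟩
  · simp only [List.forall_mem_cons, List.not_mem_nil, false_imp_iff, implies_true, and_true]
    exact ⟨iX ▸ h2 gX, iY ▸ h2 gY, iY' ▸ h2 gY', iZ ▸ h2 gZ, iA ▸ h2 gA, iA' ▸ h2 gA'⟩
  · let S : Submonoid (P4 F9) :=
      { carrier := {h | ∃ g : Co0, (∀ x, ι (act h x) = g * ι x * g⁻¹) ∧ ∀ w, g • e w = e (cact h w)}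
        one_mem' := ⟨1, fun x => by simp, fun w => by rw [one_smul, ca3.2.1]⟩
        mul_mem' := by
          rintro h k ⟨g, a1, a2⟩ ⟨g', b1, b2⟩
          exact ⟨g * g', fun x => by rw [map_mul, MulAut.mul_apply, a1, b1]; group,
            fun w => by rw [mul_smul, b2, a2, ca3.1]⟩ }
    refine indP S ?_ ?_ ?_ h
    · obtain ⟨g, a1, a2, a3, a4, a5, a6, a7⟩ := D.pl
      refine ⟨g, fun x => ind (Ind ι g (act (pl u0)).toMonoidHom) x
        (.inr (mem_Ind ι (y := gX) (by decide +kernel) (by rwa [iX])))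
        (mem_Ind ι (y := gY * gY') (by decide +kernel) (by rwa [map_mul, iY, iY']))
        (mem_Ind ι (y := gY * gY * gY') (by decide +kernel) (by rwa [map_mul, map_mul, iY, iY']))
        (mem_Ind ι (y := gZ * gZ) (by decide +kernel) (by rwa [map_mul, iZ]))
        (.inr ⟨mem_Ind ι (y := gA * gA') (by decide +kernel) (by rwa [map_mul, iA, iA']),
          mem_Ind ι (y := gA * gA * gA') (by decide +kernel) (by rwa [map_mul, map_mul, iA, iA'])⟩),
        fun w => (a7 w).trans (congrArg e ?_)⟩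
      revert w; decide +kernel
    · obtain ⟨g, a1, a2, a3, a4, a5, a6, a7⟩ := D.pm
      refine ⟨g, fun x => ind (Ind ι g (act pm).toMonoidHom) x
        (.inr (mem_Ind ι (y := gX * gX) (by decide +kernel) (by rwa [map_mul, iX])))
        (mem_Ind ι (y := gY * gY) (by decide +kernel) (by rwa [map_mul, iY]))
        (mem_Ind ι (y := gY' * gY') (by decide +kernel) (by rwa [map_mul, iY']))
        (mem_Ind ι (y := gZ * gZ) (by decide +kernel) (by rwa [map_mul, iZ]))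
        (.inr ⟨mem_Ind ι (y := gA) (by decide +kernel) (by rwa [iA]),
          mem_Ind ι (y := gA') (by decide +kernel) (by rwa [iA'])⟩),
        fun w => (a7 w).trans (congrArg e ?_)⟩
      revert w; decide +kernel
    · obtain ⟨g, a1, a2, a3, a4, a5, a6, a7⟩ := D.pg
      refine ⟨g, fun x => ind (Ind ι g (act pg).toMonoidHom) x
        (.inr (mem_Ind ι (y := gX) (by decide +kernel) (by rwa [iX])))
        (mem_Ind ι (y := gY) (by decide +kernel) (by rwa [iY]))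
        (mem_Ind ι (y := gY' * gY') (by decide +kernel) (by rwa [map_mul, iY']))
        (mem_Ind ι (y := gZ) (by decide +kernel) (by rwa [iZ]))
        (.inr ⟨mem_Ind ι (y := gA) (by decide +kernel) (by rwa [iA]),
          mem_Ind ι (y := gA' * gA') (by decide +kernel) (by rwa [map_mul, iA'])⟩),
        fun w => (a7 w).trans (congrArg e ?_)⟩
      revert w; decide +kernel
  · obtain ⟨g, a1, a2, a3, a4, a5⟩ := D.r1
    let S : Subgroup (U F9) := ((ι.comp ((Q1 F9).subtype.comp (r1 F9).toMonoidHom)).eqLocus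
      ((MulAut.conj g).toMonoidHom.comp (ι.comp (Q1 F9).subtype))).map (Q1 F9).subtype
    have m : ∀ (x : U F9) (hx : x ∈ Q1 F9) (y : U F9), (r1 F9 ⟨x, hx⟩ : U F9) = y → g * ι x = ι y * g → x ∈ S :=
      fun x hx y e1 e2 => ⟨⟨x, hx⟩, show ι (r1 F9 ⟨x, hx⟩ : U F9) = g * ι x * g⁻¹ by
        rw [e1, e2, mul_inv_cancel_right], rfl⟩
    refine ⟨g, fun x => ?_, a5⟩
    obtain ⟨y, hy, e1⟩ := ind S x (.inr (m gX rfl gZ (by decide +kernel) (by rwa [iX, iZ])))
      (m gY rfl (gY * gY) (by decide +kernel) (by rwa [map_mul, iY])) (m gY' rfl gY' (by decide +kernel) (by rwa [iY']))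
      (m gZ rfl gX (by decide +kernel) (by rwa [iX, iZ])) (.inl x.2)
    obtain rfl : y = x := Subtype.ext e1
    exact hy
  · obtain ⟨g, c1, c2, c3, c4, c5, a1, a2, a3, a4, a5, a6⟩ := D.cell w
    have m : ∀ (x : U F9) (c : ZMod 3), x ∈ Q2 F9 → g * ι x = Wd Y Y' Zc A A' (Jc w (pW x)) c * g → x ∈ Cel ι g w :=
      fun x c hx k => ⟨hx, el (Jc w (pW x)).1 (Jc w (pW x)).2 0 c, rfl, by rw [iW, k, mul_inv_cancel_right], rfl⟩
    refine ⟨g, fun x hx => (show x ∈ Cel ι g w from ?_).2, a6⟩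
    rw [dec x, show x.d = 0 from hx]
    refine mul_mem (mul_mem (mul_mem (mul_mem (mul_mem (one_mem _) (pow_mem (m gY c3 rfl (iY ▸ a3)) _))
      (pow_mem (m gY' c4 rfl (iY' ▸ a4)) _)) (pow_mem (m gZ c5 rfl ?_) _)) (pow_mem (m gA c1 rfl (iA ▸ a1)) _))
      (pow_mem (m gA' c2 rfl (iA' ▸ a2)) _)
    rw [iZ, a5]; simp [Wd, pW, gZ, el, Jc, Jf]

end CL.U4.CO1g
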